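import Cfsg.Agent.H0.J.F2
import Cfsg.Agent.H0.J.LU33

/-! Generated by tools/h0/tr.py. -/

set_option maxRecDepth 100000
set_option maxHeartbeats 0

namespace H0.J.F4
open H16 H0.TR

noncomputable def u_W : List (List ℕ) := [[nat_lit 2, nat_lit 0, nat_lit 2, nat_lit 0, nat_lit 2, nat_lit 1, nat_lit 2, nat_lit 0, nat_lit 3, nat_lit 2, nat_lit 0, nat_lit 2, nat_lit 1],
  [nat_lit 0, nat_lit 2, nat_lit 1, nat_lit 2, nat_lit 1, nat_lit 3, nat_lit 2, nat_lit 0, nat_lit 2, nat_lit 1, nat_lit 2, nat_lit 1, nat_lit 2],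
  [nat_lit 2],
  [nat_lit 1, nat_lit 1, nat_lit 2, nat_lit 1, nat_lit 2, nat_lit 0, nat_lit 2, nat_lit 1, nat_lit 1]]
noncomputable def u_P : ℕ → ℕ → ℕ := wdsP H16.J2.P u_W

theorem u_lt : allL (ltAll 5) u_W = true := by decide +kernel
theorem u_rels_k : allL (fixL u_P 4 H16.J2.B) H0.J.U33.Rl = true := by decide +kernel
theorem u_ne_k : 99 < 100 ∧ ltAll 4 (List.replicate 1 0) = 0 ∧ ltAll 4 [] = 0 ∧ apW u_P (List.replicate 1 0) 99 ≠ apW u_P [] 99 := by decide +kernel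

theorem u_act {G Ω : Type*} [Group G] [MulAction G Ω] {g : ℕ → G} {pt : ℕ → Ω}
    (M : Md g pt H16.J2.P 100 5 H16.J2.B 604800) : Act (wds g u_W) pt u_P 100 4 :=
  M.wact u_lt
theorem u_rels {G Ω : Type*} [Group G] [MulAction G Ω] {g : ℕ → G} {pt : ℕ → Ω}
    (M : Md g pt H16.J2.P 100 5 H16.J2.B 604800) : Rels (wds g u_W) H0.J.U33.Rl :=
  rels_of_base (u_act M) M.ltB (M.base.mono le_top) u_rels_k
theorem u_ne {G Ω : Type*} [Group G] [MulAction G Ω] {g : ℕ → G} {pt : ℕ → Ω}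
    (M : Md g pt H16.J2.P 100 5 H16.J2.B 604800) : (wds g u_W) 0 ^ 1 ≠ 1 :=
  M.npw (u_act M) _ u_ne_k

end H0.J.F4
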